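import Cfsg.Agent.H961.LinePSU3
import Cfsg.Agent.S0280

/-!
# Generators of `U₃(11)` (helper785)

`U₃(11)` is generated by a group `U` of order `11³`, an element `h` of order 40 normalizing `U` and an
element `w` with `w h w⁻¹ = h²⁹`.
-/

set_option autoImplicit false

namespace Cfsg.Agent.H785.JM.UGen

open Cfsg Matrix Cfsg.Agent.LieRecognition.PSUThreeSylow Cfsg.Agent.H961.LinePSU3

/-- the data of generators -/
structure Gens {T : Type*} [Group T] (U : Subgroup T) (h w : T) : Prop where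
  card : Nat.card U = 11 ^ 3
  order : orderOf h = 40
  norm : h ∈ Subgroup.normalizer (U : Set T)
  rel : w * h * w⁻¹ = h ^ 29

variable {F : Type*} [Field F] {σ : F →+* F}

/-- the torus elements -/
def dJ (hσ : ∀ x, σ (σ x) = x) (α : Fˣ) : SUJ σ :=
  ⟨⟨dmat (α : F) (σ α / α) (σ α)⁻¹, by
    have h0 : (σ α : F) ≠ 0 := (map_ne_zero σ).2 α.ne_zero
    rw [det_dmat]
    field_simp⟩, dmat_form (by
      have h0 : (σ α : F) ≠ 0 := (map_ne_zero σ).2 α.ne_zero
      rw [map_inv₀, hσ]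
      exact mul_inv_cancel₀ α.ne_zero) (by
      have h0 : (σ α : F) ≠ 0 := (map_ne_zero σ).2 α.ne_zero
      rw [map_div₀, hσ]
      field_simp) (inv_mul_cancel₀ ((map_ne_zero σ).2 α.ne_zero))⟩

theorem dJ_val (hσ : ∀ x, σ (σ x) = x) (α : Fˣ) : (dJ hσ α).1.1 = dmat (α : F) (σ α / α) (σ α)⁻¹ := rfl

theorem dmat_mul (a m d a' m' d' : F) : dmat a m d * dmat a' m' d' = dmat (a * a') (m * m') (d * d') := by
  ext i j
  fin_cases i <;> fin_cases j <;> simp [dmat, Matrix.mul_apply, Fin.sum_univ_three]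

/-- the torus -/
def dHom (hσ : ∀ x, σ (σ x) = x) : Fˣ →* SUJ σ where
  toFun := dJ hσ
  map_one' := by
    apply Subtype.ext
    apply Subtype.ext
    rw [dJ_val]
    ext i j
    fin_cases i <;> fin_cases j <;> simp [dmat]
  map_mul' α β := by
    apply Subtype.ext
    apply Subtype.ext
    change dmat _ _ _ = dmat _ _ _ * dmat _ _ _
    rw [dmat_mul]
    congr 1
    · rw [Units.val_mul, map_mul]
      exact mul_div_mul_comm _ _ _ _
    · rw [Units.val_mul, map_mul, mul_inv]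

/-- the Weyl element -/
def wmat (F : Type*) [Field F] : Matrix (Fin 3) (Fin 3) F := !![0, 0, 1; 0, -1, 0; 1, 0, 0]

/-- the Weyl element -/
def wJ (σ : F →+* F) : SUJ σ := ⟨⟨wmat F, by rw [wmat, Matrix.det_fin_three]; simp⟩, by
  change (wmat F)ᵀ * Jm F * (wmat F).map σ = Jm F
  ext i j
  fin_cases i <;> fin_cases j <;> simp [wmat, Jm, Matrix.mul_apply, Fin.sum_univ_three]⟩

theorem wJ_val : (wJ σ).1.1 = wmat F := rfl

theorem wJ_mul_dJ (hσ : ∀ x, σ (σ x) = x) (α β : Fˣ) (h : (β : F) = (σ α)⁻¹) : wJ σ * dJ hσ α = dJ hσ β * wJ σ := by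
  have h0 : (σ α : F) ≠ 0 := (map_ne_zero σ).2 α.ne_zero
  apply Subtype.ext
  apply Subtype.ext
  change wmat F * dmat _ _ _ = dmat _ _ _ * wmat F
  rw [h, map_inv₀, hσ]
  ext i j
  fin_cases i <;> fin_cases j <;> simp [dmat, wmat, Matrix.mul_apply, Fin.sum_univ_three]
  field_simp

/-- the unipotent subgroup: the stabilizer of the first basis vector -/
def UJ (σ : F →+* F) : Subgroup (SUJ σ) where
  carrier := {g | g.1.1 *ᵥ e1 F = e1 F}
  mul_mem' {g k} hg hk := by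
    change (g.1.1 * k.1.1) *ᵥ e1 F = e1 F
    have hg' : g.1.1 *ᵥ e1 F = e1 F := hg
    have hk' : k.1.1 *ᵥ e1 F = e1 F := hk
    rw [← Matrix.mulVec_mulVec, hk', hg']
  one_mem' := by
    change (1 : Matrix (Fin 3) (Fin 3) F) *ᵥ e1 F = e1 F
    rw [Matrix.one_mulVec]
  inv_mem' {g} hg := by
    have hg' : g.1.1 *ᵥ e1 F = e1 F := hg
    have h1 : (g⁻¹).1.1 * g.1.1 = 1 := congrArg (fun x : SUJ σ => x.1.1) (inv_mul_cancel g)
    change (g⁻¹).1.1 *ᵥ e1 F = e1 F
    calc (g⁻¹).1.1 *ᵥ e1 F = (g⁻¹).1.1 *ᵥ (g.1.1 *ᵥ e1 F) := by rw [hg']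
      _ = e1 F := by rw [Matrix.mulVec_mulVec, h1, Matrix.one_mulVec]

theorem mem_UJ {g : SUJ σ} : g ∈ UJ σ ↔ g.1.1 *ᵥ e1 F = e1 F := Iff.rfl

theorem isPGroup_UJ {r : ℕ} [Fact r.Prime] [CharP F r] : IsPGroup r (UJ σ) := by
  intro g
  refine ⟨2, ?_⟩
  have h := unip (r := r) g.1.1 g.1.2 g.2
  apply Subtype.ext
  apply Subtype.ext
  exact h

theorem dJ_e1 (hσ : ∀ x, σ (σ x) = x) (α : Fˣ) : (dJ hσ α).1.1 *ᵥ e1 F = (α : F) • e1 F := by
  rw [dJ_val]
  ext i
  fin_cases i <;> simp [dmat, e1, Matrix.mulVec, dotProduct, Fin.sum_univ_three]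

theorem conj_mem (hσ : ∀ x, σ (σ x) = x) (α : Fˣ) {g : SUJ σ} (hg : g ∈ UJ σ) :
    dHom hσ α * g * (dHom hσ α)⁻¹ ∈ UJ σ := by
  rw [mem_UJ] at hg ⊢
  rw [← map_inv]
  change ((dJ hσ α).1.1 * g.1.1 * (dJ hσ α⁻¹).1.1) *ᵥ e1 F = e1 F
  rw [← Matrix.mulVec_mulVec, dJ_e1, Matrix.mulVec_smul, ← Matrix.mulVec_mulVec, hg, dJ_e1, smul_smul,
    ← Units.val_mul, inv_mul_cancel, Units.val_one, one_smul]

/-- upper triangular elements -/
theorem borel (hσ : ∀ x, σ (σ x) = x) {g : SUJ σ} (h20 : g.1.1 2 0 = 0) : ∃ α : Fˣ, ∃ u ∈ UJ σ, g = dHom hσ α * u := by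
  have h10 : g.1.1 1 0 = 0 := by
    have hE := entry_of_mem_SUJ g.2 0 0
    have hJ : Jm F 0 0 = 0 := by simp [Jm]
    rw [hJ, h20, map_zero, mul_zero, zero_mul, zero_add, add_zero, mul_eq_zero, map_eq_zero, or_self] at hE
    exact hE
  have h00 : g.1.1 0 0 ≠ 0 := by
    intro h00
    have hdet := g.1.2
    rw [Matrix.det_fin_three, h20, h10, h00] at hdet
    simp at hdet
  have hg : g.1.1 *ᵥ e1 F = (g.1.1 0 0) • e1 F := by
    ext i
    fin_cases i <;> simp [e1, Matrix.mulVec, dotProduct, Fin.sum_univ_three, h10, h20]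
  refine ⟨Units.mk0 _ h00, (dHom hσ (Units.mk0 _ h00))⁻¹ * g, ?_, ?_⟩
  · rw [mem_UJ, ← map_inv]
    change ((dJ hσ _).1.1 * g.1.1) *ᵥ e1 F = e1 F
    rw [← Matrix.mulVec_mulVec, hg, Matrix.mulVec_smul, dJ_e1, smul_smul, Units.val_inv_eq_inv_val, Units.val_mk0,
      mul_inv_cancel₀ h00, one_smul]
  · rw [mul_inv_cancel_left]

/-- the big cell -/
theorem cell (hσ : ∀ x, σ (σ x) = x) {g : SUJ σ} (h20 : g.1.1 2 0 ≠ 0) :
    ∃ u ∈ UJ σ, ∃ α : Fˣ, ∃ v ∈ UJ σ, g = u * wJ σ * (dHom hσ α * v) := by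
  have hE := entry_of_mem_SUJ g.2 0 0
  have hJ : Jm F 0 0 = 0 := by simp [Jm]
  rw [hJ] at hE
  have h2' : σ (g.1.1 2 0) ≠ 0 := (map_ne_zero σ).2 h20
  have hbc : g.1.1 0 0 / g.1.1 2 0 + σ (g.1.1 0 0 / g.1.1 2 0) +
      g.1.1 1 0 / g.1.1 2 0 * σ (g.1.1 1 0 / g.1.1 2 0) = 0 := by
    rw [map_div₀, map_div₀]
    field_simp
    linear_combination hE
  set b := g.1.1 0 0 / g.1.1 2 0 with hb
  set c := g.1.1 1 0 / g.1.1 2 0 with hc
  let U : SUJ σ := ⟨⟨umt (-σ c) b c, det_umt _ _ _⟩, umt_form hσ hbc⟩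
  have hU1 : U ∈ UJ σ := by
    rw [mem_UJ]
    ext i
    fin_cases i <;> simp [U, umt, e1, Matrix.mulVec, dotProduct, Fin.sum_univ_three]
  have hU3 : g.1.1 *ᵥ e1 F = (g.1.1 2 0) • (U.1.1 *ᵥ e3 F) := by
    ext i
    fin_cases i
    · simp [U, umt, e1, e3, Matrix.mulVec, dotProduct, Fin.sum_univ_three, hb]
      field_simp
    · simp [U, umt, e1, e3, Matrix.mulVec, dotProduct, Fin.sum_univ_three, hc]
      field_simp
    · simp [U, umt, e1, e3, Matrix.mulVec, dotProduct, Fin.sum_univ_three]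
  have hw : wmat F *ᵥ e1 F = e3 F := by
    ext i
    fin_cases i <;> simp [wmat, e1, e3, Matrix.mulVec, dotProduct, Fin.sum_univ_three]
  set k := (U * wJ σ)⁻¹ * g with hk
  have hk1 : (U * wJ σ) * k = g := by rw [hk, mul_inv_cancel_left]
  have hk2 : k.1.1 *ᵥ e1 F = (g.1.1 2 0) • e1 F := by
    have h1 : ((U * wJ σ)⁻¹).1.1 * (U.1.1 * wmat F) = 1 :=
      congrArg (fun x : SUJ σ => x.1.1) (inv_mul_cancel (U * wJ σ))
    have h2 : k.1.1 = ((U * wJ σ)⁻¹).1.1 * g.1.1 := rfl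
    calc k.1.1 *ᵥ e1 F = ((U * wJ σ)⁻¹).1.1 *ᵥ ((g.1.1 2 0) • (U.1.1 *ᵥ (wmat F *ᵥ e1 F))) := by
          rw [h2, ← Matrix.mulVec_mulVec, hU3, hw]
      _ = (g.1.1 2 0) • e1 F := by
          rw [Matrix.mulVec_smul, Matrix.mulVec_mulVec, Matrix.mulVec_mulVec, Matrix.mul_assoc, h1,
            Matrix.one_mulVec]
  have hk3 : k.1.1 2 0 = 0 := by
    have := congrFun hk2 2
    simpa [e1, Matrix.mulVec, dotProduct, Fin.sum_univ_three] using this
  obtain ⟨α, v, hv, h4⟩ := borel hσ hk3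
  refine ⟨U, hU1, α, v, hv, ?_⟩
  rw [← h4, hk1]

/-- the projection -/
theorem exists_pi {q : ℕ} (hs : ∀ x, σ x = x ^ q) {T T' : Matrix (Fin 3) (Fin 3) F}
    (h : T * T' = 1) (hT : Tᵀ * T.map σ = Jm F) :
    ∃ π : SUJ σ →* PSU 3 F q, Function.Surjective π ∧ ∀ z : SUJ σ, (∀ g, z * g = g * z) → π z = 1 := by
  let e : SUJ σ ≃* SU 3 F q := ((SUJ σ).equivMapOfInjective _ (conjT h).injective).trans
    (MulEquiv.subgroupCongr (SU_eq_map hs h hT))
  refine ⟨(QuotientGroup.mk' (Subgroup.center (SU 3 F q))).comp e.toMonoidHom,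
    (QuotientGroup.mk'_surjective _).comp e.surjective, fun z hz => ?_⟩
  change QuotientGroup.mk (e z) = _
  rw [QuotientGroup.eq_one_iff, Subgroup.mem_center_iff]
  intro g
  obtain ⟨k, rfl⟩ := e.surjective g
  rw [← map_mul, ← map_mul, hz]

theorem card_psu [Fintype F] (hF : Fintype.card F = 121) : Nat.card (PSU 3 F 11) = 70915680 := by
  have h := S0280.result (F := F) (q := 11) (by rw [hF]; norm_num) 3 (by norm_num)
  rw [Finset.prod_range_succ, Finset.prod_range_succ, Finset.prod_range_succ, Finset.prod_range_zero,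
    if_pos (by decide), if_neg (by decide), if_pos (by decide)] at h
  norm_num at h
  omega

/-- **the generators of `U₃(11)`** -/
theorem exists_gens [Fintype F] (hF : Fintype.card F = 121) :
    ∃ (U : Subgroup (PSU 3 F 11)) (h w : PSU 3 F 11), Gens U h w ∧
      Subgroup.closure ((U : Set (PSU 3 F 11)) ∪ {h, w}) = ⊤ := by
  have h11 : Fact (Nat.Prime 11) := ⟨by norm_num⟩
  have hch : CharP F 11 := by
    have h := CharP.exists F
    obtain ⟨p, hp⟩ := h
    obtain ⟨n, hpp, hn⟩ := FiniteField.card F p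
    rw [hF] at hn
    have h1 : p ∣ 11 ^ 2 := by
      rw [show (11 : ℕ) ^ 2 = 121 by norm_num, hn]
      exact dvd_pow_self _ n.ne_zero
    have h2 : p = 11 := (Nat.prime_dvd_prime_iff_eq hpp (by norm_num)).1 (hpp.dvd_of_dvd_pow h1)
    rwa [h2] at hp
  obtain ⟨σ, hs, hσ, T, T', hTT, hT⟩ := exists_T_all (F := F) (q := 11) (r := 11) (f := 1)
    (by rw [hF]; norm_num) (by norm_num) (by norm_num)
  obtain ⟨π, hπ, hπz⟩ := exists_pi hs hTT hT
  obtain ⟨γ, hγ⟩ := IsCyclic.exists_generator (α := Fˣ)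
  have hord : orderOf γ = 120 := by
    rw [orderOf_eq_card_of_forall_mem_zpowers hγ, Nat.card_units, Nat.card_eq_fintype_card, hF]
  have hfin : Finite (PSU 3 F 11) := Nat.finite_of_card_ne_zero (by rw [card_psu hF]; norm_num)
  set U := (UJ σ).map π with hU
  set h := π (dHom hσ γ) with hh
  set w := π (wJ σ) with hw
  -- the order of `h`
  have h40 : h ^ 40 = 1 := by
    rw [hh, ← map_pow, ← map_pow]
    apply hπz
    intro g
    have h3 : (γ ^ 40) ^ 3 = 1 := by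
      rw [← pow_mul]
      exact orderOf_dvd_iff_pow_eq_one.1 (by rw [hord])
    set ω := γ ^ 40 with hω
    have h3' : (ω : F) ^ 3 = 1 := by
      rw [← Units.val_pow_eq_pow_val, h3, Units.val_one]
    have hω0 : (ω : F) ≠ 0 := ω.ne_zero
    have hsω : σ (ω : F) = (ω : F) ^ 2 := by
      rw [hs]
      calc (ω : F) ^ 11 = ((ω : F) ^ 3) ^ 3 * (ω : F) ^ 2 := by ring
        _ = (ω : F) ^ 2 := by rw [h3', one_pow, one_mul]
    have h5 : ((ω : F) ^ 2)⁻¹ = ω := by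
      rw [inv_eq_iff_eq_inv, eq_comm, inv_eq_iff_eq_inv, eq_comm]
      apply inv_eq_of_mul_eq_one_right
      linear_combination h3'
    have h4 : (dHom hσ ω).1.1 = (ω : F) • (1 : Matrix (Fin 3) (Fin 3) F) := by
      change dmat _ _ _ = _
      rw [hsω, h5]
      have h6 : (ω : F) ^ 2 / ω = ω := by
        field_simp
      rw [h6]
      ext i j
      fin_cases i <;> fin_cases j <;> simp [dmat]
    apply Subtype.ext
    apply Subtype.ext
    change (dHom hσ ω).1.1 * g.1.1 = g.1.1 * (dHom hσ ω).1.1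
    rw [h4]
    simp
  have hmem : ∀ α : Fˣ, π (dHom hσ α) ∈ Subgroup.zpowers h := by
    intro α
    obtain ⟨k, hk⟩ := hγ α
    refine ⟨k, ?_⟩
    have : γ ^ k = α := hk
    rw [← this, map_zpow, map_zpow]
  have hUp : IsPGroup 11 U := isPGroup_UJ.map π
  -- the count
  have hcount : Nat.card (PSU 3 F 11) ≤ orderOf h * Nat.card U + Nat.card U * orderOf h * Nat.card U := by
    let f : (Subgroup.zpowers h × U) ⊕ ((U × Subgroup.zpowers h) × U) → PSU 3 F 11 := fun x =>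
      match x with
      | Sum.inl y => y.1.1 * y.2.1
      | Sum.inr y => y.1.1.1 * w * (y.1.2.1 * y.2.1)
    have hf : Function.Surjective f := by
      intro t
      obtain ⟨g, rfl⟩ := hπ t
      by_cases h20 : g.1.1 2 0 = 0
      · obtain ⟨α, u, hu, e⟩ := borel hσ h20
        refine ⟨Sum.inl (⟨_, hmem α⟩, ⟨π u, u, hu, rfl⟩), ?_⟩
        change π (dHom hσ α) * π u = π g
        rw [← map_mul, ← e]
      · obtain ⟨u, hu, α, v, hv, e⟩ := cell hσ h20
        refine ⟨Sum.inr ((⟨π u, u, hu, rfl⟩, ⟨_, hmem α⟩), ⟨π v, v, hv, rfl⟩), ?_⟩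
        change π u * π (wJ σ) * (π (dHom hσ α) * π v) = π g
        rw [← map_mul, ← map_mul, ← map_mul, ← e]
    have := Nat.card_le_card_of_surjective f hf
    rwa [Nat.card_sum, Nat.card_prod, Nat.card_prod, Nat.card_prod, Nat.card_zpowers] at this
  rw [card_psu hF] at hcount
  have hdvd : orderOf h ∣ 40 := orderOf_dvd_of_pow_eq_one h40
  have hle : orderOf h ≤ 40 := Nat.le_of_dvd (by norm_num) hdvd
  obtain ⟨m, hm⟩ := IsPGroup.iff_card.1 hUp
  have hm3 : m ≤ 3 := by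
    have h1 : Nat.card U ∣ 70915680 := card_psu hF ▸ Subgroup.card_subgroup_dvd_card U
    rw [hm] at h1
    by_contra hlt
    have h2 : 11 ^ 4 ∣ 70915680 := (pow_dvd_pow 11 (by omega)).trans h1
    norm_num at h2
  have hm3' : m = 3 := by
    by_contra hne
    have h1 : 11 ^ m ≤ 11 ^ 2 := Nat.pow_le_pow_right (by norm_num) (by omega)
    rw [← hm] at h1
    have h2 : orderOf h * Nat.card U + Nat.card U * orderOf h * Nat.card U ≤ 40 * 121 + 121 * 40 * 121 := by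
      gcongr
      · exact h1
      · exact h1
      · exact h1
    omega
  have hUc : Nat.card U = 1331 := by rw [hm, hm3']; norm_num
  have hoh : orderOf h = 40 := by
    rw [hUc] at hcount
    omega
  refine ⟨U, h, w, ⟨by rw [hUc]; norm_num, hoh, ?_, ?_⟩, ?_⟩
  · apply Subgroup.mem_normalizer_fintype
    rintro _ ⟨u, hu, rfl⟩
    exact ⟨_, conj_mem hσ γ hu, by rw [map_mul, map_mul, map_inv]⟩
  · have h1 : wJ σ * dHom hσ γ = dHom hσ (γ ^ 109) * wJ σ := by
      refine wJ_mul_dJ hσ _ _ ?_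
      rw [hs, Units.val_pow_eq_pow_val]
      apply eq_inv_of_mul_eq_one_left
      rw [← pow_add, ← Units.val_pow_eq_pow_val, show 109 + 11 = orderOf γ by rw [hord], pow_orderOf_eq_one,
        Units.val_one]
    have h2 : w * h = h ^ 109 * w := by
      rw [hw, hh, ← map_mul, h1, map_mul, map_pow, map_pow]
    rw [h2, mul_inv_cancel_right, show (109 : ℕ) = 40 * 2 + 29 by norm_num, pow_add, pow_mul, h40, one_pow,
      one_mul]
  · rw [eq_top_iff]
    intro t _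
    obtain ⟨g, rfl⟩ := hπ t
    set C := Subgroup.closure ((U : Set (PSU 3 F 11)) ∪ {h, w}) with hC
    have hCU : ∀ u ∈ UJ σ, π u ∈ C := fun u hu => Subgroup.subset_closure (Or.inl ⟨u, hu, rfl⟩)
    have hCh : ∀ α, π (dHom hσ α) ∈ C := fun α =>
      (Subgroup.zpowers_le.2 (Subgroup.subset_closure (Or.inr (Or.inl rfl))) : Subgroup.zpowers h ≤ C) (hmem α)
    have hCw : w ∈ C := Subgroup.subset_closure (Or.inr (Or.inr rfl))
    by_cases h20 : g.1.1 2 0 = 0
    · obtain ⟨α, u, hu, e⟩ := borel hσ h20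
      rw [e, map_mul]
      exact C.mul_mem (hCh α) (hCU u hu)
    · obtain ⟨u, hu, α, v, hv, e⟩ := cell hσ h20
      rw [e, map_mul, map_mul, map_mul]
      exact C.mul_mem (C.mul_mem (hCU u hu) hCw) (C.mul_mem (hCh α) (hCU v hv))

end Cfsg.Agent.H785.JM.UGen
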