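import Mathlib.LinearAlgebra.Matrix.GeneralLinearGroup.Card
import Cfsg.Agent.H785.JM.Abs
import Cfsg.Agent.H785.JM.UGen
import Cfsg.Agent.H785.JM.GLTwo

/-!
# Conjugacy of groups `U₃(11)`: the group theory (helper785)
-/

set_option autoImplicit false

namespace Cfsg.Agent.H785.JM.Glue

open Cfsg.Agent.H785.JM.UGen Cfsg.Agent.H785.JM.GLTwo Subgroup

/-! ### Sylow -/

theorem exists_conj_mem {G : Type*} [Group G] [Finite G] {p : ℕ} [Fact p.Prime] {P : Subgroup G} (hP : IsPGroup p P)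
    (hi : ¬ p ∣ P.index) {g : G} (hg : ∃ n, g ^ p ^ n = 1) : ∃ x : G, x * g * x⁻¹ ∈ P := by
  obtain ⟨n, hn⟩ := hg
  have h1 : IsPGroup p (Subgroup.zpowers g) := by
    rintro ⟨_, m, rfl⟩
    refine ⟨n, Subtype.ext ?_⟩
    change (g ^ m) ^ p ^ n = 1
    rw [← zpow_natCast, ← zpow_mul, mul_comm, zpow_mul, zpow_natCast, hn, one_zpow]
  obtain ⟨Q, hQ⟩ := h1.exists_le_sylow
  obtain ⟨x, hx⟩ := MulAction.exists_smul_eq G Q (hP.toSylow hi)
  refine ⟨x, ?_⟩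
  have h2 : (Q : Subgroup G).map (MulAut.conj x).toMonoidHom = P := by
    have := congrArg (fun S : Sylow p G => (S : Subgroup G)) hx
    exact this
  rw [← h2]
  exact ⟨g, hQ (Subgroup.mem_zpowers g), rfl⟩

theorem zpowers_eq_of_mem {G : Type*} [Group G] [Finite G] {a b : G} (h : a ∈ zpowers b)
    (ho : orderOf a = orderOf b) : zpowers a = zpowers b := by
  apply Subgroup.eq_of_le_of_card_ge
  · rwa [zpowers_le]
  · rw [Nat.card_zpowers, Nat.card_zpowers, ho]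

theorem orderOf_conj' {G : Type*} [Group G] (n h : G) : orderOf (n * h * n⁻¹) = orderOf h :=
  MulEquiv.orderOf_eq (MulAut.conj n) h

theorem conj_split {G : Type*} [Group G] (c k : G) (h : k ^ 40 = 1) :
    c * k * c⁻¹ = (c * k ^ 5 * c⁻¹) ^ 5 * (c * k ^ 8 * c⁻¹) ^ 2 := by
  rw [conj_pow, conj_pow, ← pow_mul, ← pow_mul]
  have h1 : k ^ (5 * 5) * k ^ (8 * 2) = k := by
    rw [← pow_add, show 5 * 5 + 8 * 2 = 40 + 1 by norm_num, pow_succ, h, one_mul]
  calc c * k * c⁻¹ = c * (k ^ (5 * 5) * k ^ (8 * 2)) * c⁻¹ := by rw [h1]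
    _ = _ := by group

theorem conj40 {N : Type*} [Group N] [Finite N] (hc : Nat.card N = 2 ^ 4 * 3 * 5 * 11 ^ 3)
    {κ : GL (Fin 2) (ZMod 3) →* N} (hκ : Function.Injective κ) {h₁ h₂ : N} (o1 : orderOf h₁ = 40)
    (o2 : orderOf h₂ = 40) : ∃ n, n * h₁ * n⁻¹ ∈ zpowers h₂ := by
  have f2 : Fact (Nat.Prime 2) := ⟨Nat.prime_two⟩
  have f5 : Fact (Nat.Prime 5) := ⟨by norm_num⟩
  obtain ⟨R⟩ : Nonempty (Sylow 2 (GL (Fin 2) (ZMod 3))) := inferInstance
  have hGL : Nat.card (GL (Fin 2) (ZMod 3)) = 48 := by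
    rw [Matrix.card_GL_field, Fin.prod_univ_two, ZMod.card]
    norm_num
  have hR : Nat.card R = 16 := by
    rw [Sylow.card_eq_multiplicity, hGL, show 48 = 2 ^ 4 * 3 by norm_num,
      Nat.factorization_mul (by norm_num) (by norm_num), Nat.Prime.factorization_pow Nat.prime_two,
      Nat.Prime.factorization Nat.prime_three]
    simp
  have hP : IsPGroup 2 ((R : Subgroup (GL (Fin 2) (ZMod 3))).map κ) := R.isPGroup'.map κ
  have hPc : Nat.card ((R : Subgroup (GL (Fin 2) (ZMod 3))).map κ) = 16 := by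
    rw [← hR]
    exact (Nat.card_congr ((R : Subgroup (GL (Fin 2) (ZMod 3))).equivMapOfInjective κ hκ).toEquiv).symm
  have hPi : ¬ 2 ∣ ((R : Subgroup (GL (Fin 2) (ZMod 3))).map κ).index := by
    have h1 := ((R : Subgroup (GL (Fin 2) (ZMod 3))).map κ).card_mul_index
    rw [hPc, hc] at h1
    omega
  have hex : ∀ h : N, orderOf h = 40 → ∃ (x : N) (a : GL (Fin 2) (ZMod 3)), x * h ^ 5 * x⁻¹ = κ a ∧ orderOf a = 8 := by
    intro h ho
    have h8 : orderOf (h ^ 5) = 8 := by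
      rw [orderOf_pow, ho]
      norm_num
    obtain ⟨x, hx⟩ := exists_conj_mem hP hPi (g := h ^ 5) ⟨3, by
      rw [show 2 ^ 3 = orderOf (h ^ 5) by rw [h8]; norm_num, pow_orderOf_eq_one]⟩
    obtain ⟨a, -, ha⟩ := hx
    refine ⟨x, a, ha.symm, ?_⟩
    rw [← orderOf_injective κ hκ, ha, orderOf_conj', h8]
  obtain ⟨x₁, a₁, e₁, r₁⟩ := hex h₁ o1
  obtain ⟨x₂, a₂, e₂, r₂⟩ := hex h₂ o2
  obtain ⟨b, hb⟩ := gl_conj r₁ r₂
  set n₀ := x₂⁻¹ * κ b * x₁ with hn₀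
  set k := n₀ * h₁ * n₀⁻¹ with hk
  have ok : orderOf k = 40 := by rw [hk, orderOf_conj', o1]
  have hk5 : k ^ 5 ∈ zpowers (h₂ ^ 5) := by
    obtain ⟨j, hj⟩ := mem_zpowers_iff.1 hb
    refine mem_zpowers_iff.2 ⟨j, ?_⟩
    have h1 : x₂ * (h₂ ^ 5) ^ j * x₂⁻¹ = κ b * (x₁ * h₁ ^ 5 * x₁⁻¹) * (κ b)⁻¹ := by
      rw [← conj_zpow, e₂, e₁, ← map_zpow, hj, map_mul, map_mul, map_inv]
    have h2 : k ^ 5 = n₀ * h₁ ^ 5 * n₀⁻¹ := by rw [hk]; exact conj_pow
    rw [h2, hn₀]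
    calc (h₂ ^ 5) ^ j = x₂⁻¹ * (x₂ * (h₂ ^ 5) ^ j * x₂⁻¹) * x₂ := by group
      _ = _ := by rw [h1]; group
  have h85 : orderOf (k ^ 5) = orderOf (h₂ ^ 5) := by
    rw [orderOf_pow, orderOf_pow, ok, o2]
  have hz5 : zpowers (k ^ 5) = zpowers (h₂ ^ 5) := zpowers_eq_of_mem hk5 h85
  -- the centralizer of the order eight part
  have hkc : k ∈ centralizer {h₂ ^ 5} := by
    rw [mem_centralizer_iff]
    rintro _ rfl
    have h1 : h₂ ^ 5 ∈ zpowers (k ^ 5) := hz5 ▸ mem_zpowers _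
    obtain ⟨j, hj⟩ := mem_zpowers_iff.1 h1
    rw [← hj]
    exact ((Commute.refl k).pow_left 5).zpow_left j
  have hhc : h₂ ∈ centralizer {h₂ ^ 5} := by
    rw [mem_centralizer_iff]
    rintro _ rfl
    exact (Commute.refl h₂).pow_left 5
  set C := centralizer ({h₂ ^ 5} : Set N) with hC
  have h25 : ¬ 5 ∣ (zpowers ((⟨h₂, hhc⟩ : C) ^ 8)).index := by
    have h1 := (zpowers ((⟨h₂, hhc⟩ : C) ^ 8)).card_mul_index
    have h2 : orderOf (⟨h₂, hhc⟩ : C) = 40 := by rw [← o2]; exact Subgroup.orderOf_mk _ _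
    rw [Nat.card_zpowers, orderOf_pow, h2] at h1
    rintro ⟨t, ht⟩
    rw [ht, show 40 / Nat.gcd 40 8 = 5 by norm_num] at h1
    have h3 : Nat.card C ∣ Nat.card N := Subgroup.card_subgroup_dvd_card C
    rw [hc, ← h1] at h3
    have h4 : 25 ∣ 2 ^ 4 * 3 * 5 * 11 ^ 3 := (Dvd.intro t (by ring)).trans h3
    norm_num at h4
  have hp5 : IsPGroup 5 (zpowers ((⟨h₂, hhc⟩ : C) ^ 8)) := by
    have h2 : orderOf (⟨h₂, hhc⟩ : C) = 40 := by rw [← o2]; exact Subgroup.orderOf_mk _ _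
    apply IsPGroup.of_card (n := 1)
    rw [Nat.card_zpowers, orderOf_pow, h2]
    norm_num
  obtain ⟨c, hcm⟩ := exists_conj_mem hp5 h25 (g := (⟨k, hkc⟩ : C) ^ 8) ⟨1, by
    rw [← pow_mul, show 8 * 5 ^ 1 = orderOf (⟨k, hkc⟩ : C) by rw [Subgroup.orderOf_mk, ok]; norm_num,
      pow_orderOf_eq_one]⟩
  refine ⟨c.1 * n₀, ?_⟩
  have e1 : c.1 * n₀ * h₁ * (c.1 * n₀)⁻¹ = c.1 * k * c.1⁻¹ := by rw [hk]; group
  rw [e1]
  have e2 : c.1 * k * c.1⁻¹ = (c.1 * k ^ 5 * c.1⁻¹) ^ 5 * (c.1 * k ^ 8 * c.1⁻¹) ^ 2 :=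
    conj_split _ _ (by rw [← ok, pow_orderOf_eq_one])
  have e3 : c.1 * k ^ 5 * c.1⁻¹ = k ^ 5 := by
    have h1 : h₂ ^ 5 * c.1 = c.1 * h₂ ^ 5 := mem_centralizer_iff.1 c.2 _ rfl
    obtain ⟨j, hj⟩ := mem_zpowers_iff.1 hk5
    have h2 : Commute c.1 ((h₂ ^ 5) ^ j) := (Commute.zpow_right (show Commute c.1 (h₂ ^ 5) from h1.symm) j)
    rw [hj] at h2
    rw [h2.eq, mul_inv_cancel_right]
  rw [e2, e3]
  refine (zpowers h₂).mul_mem ((zpowers h₂).pow_mem ?_ 5) ((zpowers h₂).pow_mem ?_ 2)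
  · obtain ⟨j, hj⟩ := mem_zpowers_iff.1 hk5
    rw [← hj]
    exact (zpowers h₂).zpow_mem ((zpowers h₂).pow_mem (mem_zpowers _) 5) j
  · obtain ⟨j, hj⟩ := mem_zpowers_iff.1 hcm
    have h1 : (h₂ ^ 8) ^ j = c.1 * k ^ 8 * c.1⁻¹ := congrArg Subtype.val hj
    rw [← h1]
    exact (zpowers h₂).zpow_mem ((zpowers h₂).pow_mem (mem_zpowers _) 8) j

/-! ### Gluing -/

theorem Gens.map {S T : Type*} [Group S] [Group T] {U : Subgroup S} {h w : S} (g : Gens U h w) {φ : S →* T}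
    (hφ : Function.Injective φ) : Gens (U.map φ) (φ h) (φ w) := by
  refine ⟨?_, ?_, ?_, ?_⟩
  · rw [← g.card]
    exact (Nat.card_congr (U.equivMapOfInjective φ hφ).toEquiv).symm
  · rw [orderOf_injective φ hφ, g.order]
  · rw [mem_normalizer_iff]
    intro x
    have h1 := mem_normalizer_iff.1 g.norm
    constructor
    · rintro ⟨u, hu, rfl⟩
      exact ⟨h * u * h⁻¹, (h1 u).1 hu, by rw [map_mul, map_mul, map_inv]⟩
    · rintro ⟨u, hu, hux⟩
      refine ⟨h⁻¹ * u * h, (h1 _).2 ?_, ?_⟩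
      · have : h * (h⁻¹ * u * h) * h⁻¹ = u := by group
        rw [this]
        exact hu
      · rw [map_mul, map_mul, map_inv, hux]
        group
  · rw [← map_mul, ← map_inv, ← map_mul, g.rel, map_pow]

theorem conj_rel {G : Type*} [Group G] {w h x : G} (hw : w * h * w⁻¹ = h ^ 29) (hx : x ∈ zpowers h) :
    w * x * w⁻¹ = x ^ 29 := by
  obtain ⟨k, rfl⟩ := mem_zpowers_iff.1 hx
  rw [← conj_zpow, hw, ← zpow_natCast, ← zpow_natCast, ← zpow_mul, ← zpow_mul, mul_comm]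

theorem glue {G : Type*} [Group G] [Finite G] (h11 : ¬ 11 ^ 4 ∣ Nat.card G)
    (H1 : ∀ P : Subgroup G, Nat.card P = 11 ^ 3 → ∀ h₁ h₂ : G, h₁ ∈ normalizer (P : Set G) →
      h₂ ∈ normalizer (P : Set G) → orderOf h₁ = 40 → orderOf h₂ = 40 →
      ∃ n ∈ normalizer (P : Set G), n * h₁ * n⁻¹ ∈ zpowers h₂)
    (H2 : ∀ h : G, orderOf h = 40 → centralizer {h} ≤ zpowers h)
    {P P' : Subgroup G} {h w h' w' : G} (g1 : Gens P h w) (g2 : Gens P' h' w') :
    ∃ g : G, closure ((P' : Set G) ∪ {h', w'}) = (closure ((P : Set G) ∪ {h, w})).map (MulAut.conj g).toMonoidHom := by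
  have f11 : Fact (Nat.Prime 11) := ⟨by norm_num⟩
  have hidx : ∀ Q : Subgroup G, Nat.card Q = 11 ^ 3 → ¬ 11 ∣ Q.index := by
    intro Q hQ hd
    apply h11
    rw [← Q.card_mul_index, hQ, pow_succ]
    exact Nat.mul_dvd_mul_left _ hd
  obtain ⟨g₀, hg₀⟩ : ∃ g₀ : G, P.map (MulAut.conj g₀).toMonoidHom = P' := by
    obtain ⟨x, hx⟩ := MulAction.exists_smul_eq G ((IsPGroup.of_card g1.card).toSylow (hidx P g1.card))
      ((IsPGroup.of_card g2.card).toSylow (hidx P' g2.card))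
    exact ⟨x, congrArg (fun S : Sylow 11 G => (S : Subgroup G)) hx⟩
  have g1' := Gens.map g1 (φ := (MulAut.conj g₀).toMonoidHom) (MulAut.conj g₀).injective
  rw [hg₀] at g1'
  obtain ⟨n, hn, hnh⟩ := H1 P' g2.card _ _ g1'.norm g2.norm g1'.order g2.order
  have hPk : P.map (MulAut.conj (n * g₀)).toMonoidHom = P' := by
    rw [map_mul]
    change P.map (((MulAut.conj n).toMonoidHom).comp (MulAut.conj g₀).toMonoidHom) = P'
    rw [← Subgroup.map_map, hg₀]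
    exact Subgroup.mem_normalizer_iff_map_conj_eq.1 hn
  set k := n * g₀ with hk
  have g3 := Gens.map g1 (φ := (MulAut.conj k).toMonoidHom) (MulAut.conj k).injective
  rw [hPk] at g3
  set h'' := (MulAut.conj k).toMonoidHom h with hh''
  set w'' := (MulAut.conj k).toMonoidHom w with hw''
  have hmem : h'' ∈ zpowers h' := by
    have : h'' = n * (g₀ * h * g₀⁻¹) * n⁻¹ := by
      change k * h * k⁻¹ = _
      rw [hk]
      group
    rw [this]
    exact hnh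
  have hz : zpowers h'' = zpowers h' := zpowers_eq_of_mem hmem (by rw [g3.order, g2.order])
  have hmem' : h' ∈ zpowers h'' := hz ▸ mem_zpowers _
  have hc : w'⁻¹ * w'' ∈ zpowers h' := by
    apply H2 h' g2.order
    rw [mem_centralizer_iff]
    intro y hy
    rw [Set.mem_singleton_iff.1 hy]
    have e1 := conj_rel g3.rel hmem'
    have e2 : w'' * h' * w''⁻¹ = w' * h' * w'⁻¹ := by rw [e1, g2.rel]
    calc h' * (w'⁻¹ * w'') = w'⁻¹ * (w' * h' * w'⁻¹) * w'' := by group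
      _ = w'⁻¹ * (w'' * h' * w''⁻¹) * w'' := by rw [e2]
      _ = w'⁻¹ * w'' * h' := by group
  refine ⟨k, ?_⟩
  rw [MonoidHom.map_closure, Set.image_union, Set.image_pair]
  have hPi : (⇑(MulAut.conj k).toMonoidHom) '' (P : Set G) = (P' : Set G) := by
    rw [← hPk]
    rfl
  rw [hPi, ← hh'', ← hw'']
  apply le_antisymm
  · rw [closure_le]
    set D := closure ((P' : Set G) ∪ {h'', w''}) with hD
    have d1 : zpowers h'' ≤ D := zpowers_le.2 (subset_closure (Or.inr (Or.inl rfl)))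
    have d2 : w'' ∈ D := subset_closure (Or.inr (Or.inr rfl))
    rintro x (hx | rfl | rfl)
    · exact subset_closure (Or.inl hx)
    · exact d1 hmem'
    · have : x = w'' * (x⁻¹ * w'')⁻¹ := by group
      rw [this]
      refine D.mul_mem d2 (D.inv_mem (d1 ?_))
      rw [hz]
      exact hc
  · rw [closure_le]
    set D := closure ((P' : Set G) ∪ {h', w'}) with hD
    have d1 : zpowers h' ≤ D := zpowers_le.2 (subset_closure (Or.inr (Or.inl rfl)))
    have d2 : w' ∈ D := subset_closure (Or.inr (Or.inr rfl))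
    rintro x (hx | hx | hx)
    · exact subset_closure (Or.inl hx)
    · rw [hx]
      exact d1 hmem
    · have hx' : x = w'' := hx
      rw [hx']
      have : w'' = w' * (w'⁻¹ * w'') := by group
      rw [this]
      exact D.mul_mem d2 (d1 hc)

end Cfsg.Agent.H785.JM.Glue
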