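import Cfsg.Agent.H860.JM.Defs
import Cfsg.Agent.H859.SylEleven
import Cfsg.Agent.H858.Loc5
import Cfsg.Agent.H858.VK
import Cfsg.Agent.H859.Transfer
import Cfsg.Agent.H785.JM.Glue

/-!
# `J₄` has at most one class of maximal subgroups with socle `U₃(11)` (helper785)
-/

set_option autoImplicit false

namespace Cfsg.Agent.H785.JM.U311

open Cfsg Subgroup Cfsg.Agent.H860.JM Cfsg.Agent.H785.JM.UGen Cfsg.Agent.H785.JM.Glue
open Cfsg.Agent.H858.Loc5 Cfsg.Agent.H858.Loc7

/-- the group `Spor.J4` -/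
local notation "𝒢" => Cfsg.Spor.J4

theorem card_J4 : Nat.card 𝒢 = 86775571046077562880 := Cfsg.Agent.H858.FixJ4.facts.2.1

theorem not_dvd11 : ¬ 11 ^ 4 ∣ Nat.card 𝒢 := by
  rw [card_J4]
  norm_num

/-- cyclic subgroups of order 40 in the normalizer of a Sylow 11-subgroup -/
theorem H1 (P : Subgroup 𝒢) (hP : Nat.card P = 11 ^ 3) (h₁ h₂ : 𝒢) (m₁ : h₁ ∈ normalizer (P : Set 𝒢))
    (m₂ : h₂ ∈ normalizer (P : Set 𝒢)) (o₁ : orderOf h₁ = 40) (o₂ : orderOf h₂ = 40) :
    ∃ n ∈ normalizer (P : Set 𝒢), n * h₁ * n⁻¹ ∈ zpowers h₂ := by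
  have f11 : Fact (Nat.Prime 11) := ⟨by norm_num⟩
  have hidx : ¬ 11 ∣ P.index := by
    intro hd
    apply not_dvd11
    rw [← P.card_mul_index, hP, pow_succ]
    exact Nat.mul_dvd_mul_left _ hd
  obtain ⟨x, hx⟩ := MulAction.exists_smul_eq 𝒢 (Cfsg.Agent.H859.SylEleven.isPGroup_U.toSylow
    Cfsg.Agent.H859.SylEleven.not_dvd_U) ((IsPGroup.of_card hP).toSylow hidx)
  have hx' : (Cfsg.Agent.H859.NU.U).map (MulAut.conj x).toMonoidHom = P :=
    congrArg (fun S : Sylow 11 𝒢 => (S : Subgroup 𝒢)) hx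
  have hn : (normalizer (Cfsg.Agent.H859.NU.U : Set 𝒢)).map (MulAut.conj x).toMonoidHom = normalizer (P : Set 𝒢) := by
    rw [← hx']
    exact (Cfsg.Agent.H859.Transfer.map_normalizer (MulAut.conj x) _).symm
  have hc : Nat.card (normalizer (P : Set 𝒢)) = 2 ^ 4 * 3 * 5 * 11 ^ 3 := by
    rw [← hn, Cfsg.Agent.H859.Transfer.card_map]
    exact Cfsg.Agent.H859.SylEleven.card_N
  let φ : GL (Fin 2) (ZMod 3) →* 𝒢 := (MulAut.conj x).toMonoidHom.comp Cfsg.Agent.H859.NU.hom
  have hφ : ∀ g, φ g ∈ normalizer (P : Set 𝒢) := by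
    intro g
    rw [← hn]
    exact ⟨_, Cfsg.Agent.H859.SylEleven.hom_range_le ⟨g, rfl⟩, rfl⟩
  obtain ⟨n, hn'⟩ := conj40 (N := normalizer (P : Set 𝒢)) hc (κ := φ.codRestrict _ hφ) (by
    intro a b hab
    have h1 : φ a = φ b := congrArg Subtype.val hab
    exact Cfsg.Agent.H859.NU.hom_injective ((MulAut.conj x).injective h1)) (h₁ := ⟨h₁, m₁⟩) (h₂ := ⟨h₂, m₂⟩)
    (by rw [Subgroup.orderOf_mk, o₁]) (by rw [Subgroup.orderOf_mk, o₂])
  refine ⟨n, n.2, ?_⟩
  obtain ⟨j, hj⟩ := mem_zpowers_iff.1 hn'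
  exact mem_zpowers_iff.2 ⟨j, congrArg Subtype.val hj⟩

/-- `J ∩ C(Z) = Z` -/
theorem J_inf : J ⊓ centralizer (Z : Set 𝒢) ≤ Z := by
  rintro x ⟨hxJ, hxZ⟩
  have h1 : (⟨x, hxJ⟩ : J) ∈ πJ.ker := by
    have h4 : (Subgroup.inclusion J_le_norm ⟨x, hxJ⟩) ∈ πZ.ker := by
      unfold πZ
      rw [Subgroup.normalizerMonoidHom_ker, Subgroup.mem_subgroupOf]
      exact hxZ
    exact h4
  rw [ker_πJ] at h1
  exact h1

/-- the centralizer of an element of order 40 -/
theorem H2 (h : 𝒢) (ho : orderOf h = 40) : centralizer {h} ≤ zpowers h := by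
  have f5 : Fact (Nat.Prime 5) := ⟨by norm_num⟩
  have key : ∀ h : 𝒢, orderOf h = 40 → h ^ 8 ∈ F5 → centralizer {h} ≤ zpowers h := by
    intro h ho h8
    have hF : zpowers (h ^ 8) = F5 := by
      apply Subgroup.eq_of_le_of_card_ge
      · rwa [zpowers_le]
      · rw [Nat.card_zpowers, orderOf_pow, ho, card_F5]
        norm_num
    have hFh : F5 ≤ zpowers h := by
      rw [← hF, zpowers_le]
      exact (zpowers h).pow_mem (mem_zpowers h) 8
    have hle : centralizer {h} ≤ centralizer (F5 : Set 𝒢) := by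
      intro c hc
      rw [mem_centralizer_iff] at hc ⊢
      intro y hy
      obtain ⟨j, rfl⟩ := mem_zpowers_iff.1 (hFh hy)
      exact (Commute.zpow_left (hc h rfl) j)
    obtain ⟨-, -, hcomm, hbot, hsup⟩ := Cfsg.Agent.H858.Loc5.directProduct
    -- the decomposition
    have hdec : ∀ c ∈ centralizer (F5 : Set 𝒢), ∃ a ∈ F5, ∃ b ∈ J, c = a * b := by
      intro c hc
      rw [← hsup] at hc
      have : (F5 ⊔ J : Subgroup 𝒢) ≤ ({
          carrier := {x | ∃ a ∈ F5, ∃ b ∈ J, x = a * b}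
          mul_mem' := by
            rintro _ _ ⟨a, ha, b, hb, rfl⟩ ⟨a', ha', b', hb', rfl⟩
            refine ⟨a * a', F5.mul_mem ha ha', b * b', J.mul_mem hb hb', ?_⟩
            calc a * b * (a' * b') = a * (b * a') * b' := by group
              _ = a * (a' * b) * b' := by rw [hcomm a' ha' b hb]
              _ = a * a' * (b * b') := by group
          one_mem' := ⟨1, F5.one_mem, 1, J.one_mem, by rw [one_mul]⟩
          inv_mem' := by
            rintro _ ⟨a, ha, b, hb, rfl⟩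
            refine ⟨a⁻¹, F5.inv_mem ha, b⁻¹, J.inv_mem hb, ?_⟩
            rw [hcomm a ha b hb, mul_inv_rev] } : Subgroup 𝒢) := by
        rw [sup_le_iff]
        exact ⟨fun x hx => ⟨x, hx, 1, J.one_mem, by rw [mul_one]⟩, fun x hx => ⟨1, F5.one_mem, x, hx, by rw [one_mul]⟩⟩
      exact this hc
    set y := h ^ 25 with hy
    have oy : orderOf y = 8 := by
      rw [hy, orderOf_pow, ho]
      norm_num
    have hyc : y ∈ centralizer {h} := by
      rw [mem_centralizer_iff]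
      intro z hz
      rw [Set.mem_singleton_iff.1 hz]
      exact (Commute.refl h).pow_right 25
    have hyJ : y ∈ J := by
      obtain ⟨a, ha, b, hb, e⟩ := hdec y (hle hyc)
      have hab : Commute a b := hcomm a ha b hb
      have e8 : a ^ 8 * b ^ 8 = 1 := by
        rw [← hab.mul_pow, ← e, ← oy, pow_orderOf_eq_one]
      have e9 : a ^ 8 ∈ F5 ⊓ J := ⟨F5.pow_mem ha 8, by
        rw [eq_inv_of_mul_eq_one_left e8]
        exact J.inv_mem (J.pow_mem hb 8)⟩
      rw [hbot, mem_bot] at e9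
      have e5 : a ^ 5 = 1 := by
        have h1 : (⟨a, ha⟩ : F5) ^ Nat.card F5 = 1 := pow_card_eq_one'
        rw [card_F5] at h1
        exact congrArg Subtype.val h1
      have e1 : a = 1 := by
        calc a = (a ^ 8) ^ 2 * ((a ^ 5) ^ 3)⁻¹ := by group
          _ = 1 := by rw [e9, e5, one_pow, one_pow, inv_one, mul_one]
      rw [e, e1, one_mul]
      exact hb
    set C := centralizer {h} ⊓ J with hC
    have hyC : zpowers y ≤ C := by
      rw [zpowers_le]
      exact ⟨hyc, hyJ⟩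
    have hCc : Nat.card C ≤ 14 := by
      refine Cfsg.Agent.H785.JM.Abs.card_cent card_Z oct_Z.sq (x := y) (J_le_norm hyJ) ?_ ?_ ?_ ?_ ?_
      · rw [← oy, pow_orderOf_eq_one]
      · intro h2
        have h3 : y ^ 2 ∈ Z := J_inf ⟨J.pow_mem hyJ 2, h2⟩
        have h4 := oct_Z.sq _ h3
        rw [← pow_add] at h4
        have h5 := orderOf_dvd_of_pow_eq_one h4
        rw [oy] at h5
        norm_num at h5
      · intro c hc
        have hc1 := mem_centralizer_iff.1 hc.1 h rfl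
        rw [mem_centralizer_iff]
        intro z hz
        rw [Set.mem_singleton_iff.1 hz]
        exact Commute.pow_left hc1 25
      · exact inf_le_right.trans J_le_norm
      · exact (inf_le_inf_right _ inf_le_right).trans J_inf
    have hCe : zpowers y = C := by
      apply Subgroup.eq_of_le_of_card_ge hyC
      obtain ⟨t, ht⟩ := Subgroup.card_dvd_of_le hyC
      rw [Nat.card_zpowers, oy] at ht
      rw [Nat.card_zpowers, oy]
      omega
    intro c hc
    obtain ⟨a, ha, b, hb, e⟩ := hdec c (hle hc)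
    have hac : a ∈ centralizer {h} := by
      obtain ⟨j, rfl⟩ := mem_zpowers_iff.1 (hFh ha)
      rw [mem_centralizer_iff]
      intro z hz
      rw [Set.mem_singleton_iff.1 hz]
      exact (Commute.refl h).zpow_right j
    have hbC : b ∈ C := ⟨by
      have : b = a⁻¹ * c := by rw [e]; group
      rw [this]
      exact (centralizer {h}).mul_mem ((centralizer {h}).inv_mem hac) hc, hb⟩
    rw [← hCe] at hbC
    rw [e]
    refine (zpowers h).mul_mem (hFh ha) ?_
    obtain ⟨j, rfl⟩ := mem_zpowers_iff.1 hbC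
    exact (zpowers h).zpow_mem ((zpowers h).pow_mem (mem_zpowers h) 25) j
  have hi : ¬ 5 ∣ F5.index := by
    intro hd
    have h1 := F5.card_mul_index
    rw [card_F5, card_J4] at h1
    omega
  obtain ⟨x, hx⟩ := exists_conj_mem (P := F5) (IsPGroup.of_card (n := 1) (by rw [card_F5, pow_one])) hi (g := h ^ 8)
    ⟨1, by rw [← pow_mul, show 8 * 5 ^ 1 = orderOf h by rw [ho]; norm_num, pow_orderOf_eq_one]⟩
  have h1 := key (x * h * x⁻¹) (by rw [orderOf_conj', ho]) (by rw [conj_pow]; exact hx)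
  intro c hc
  have hc' : x * c * x⁻¹ ∈ centralizer {x * h * x⁻¹} := by
    have hc1 := mem_centralizer_iff.1 hc h rfl
    rw [mem_centralizer_iff]
    intro z hz
    rw [Set.mem_singleton_iff.1 hz]
    calc x * h * x⁻¹ * (x * c * x⁻¹) = x * (h * c) * x⁻¹ := by group
      _ = x * (c * h) * x⁻¹ := by rw [hc1]
      _ = x * c * x⁻¹ * (x * h * x⁻¹) := by group
  obtain ⟨j, hj⟩ := mem_zpowers_iff.1 (h1 hc')
  refine mem_zpowers_iff.2 ⟨j, ?_⟩
  rw [conj_zpow] at hj
  exact mul_left_cancel (mul_right_cancel hj)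

theorem eq_norm {M S : Subgroup 𝒢} (h : NL M S) : M = normalizer (S : Set 𝒢) := by
  have hsim : IsSimpleGroup 𝒢 := Cfsg.Agent.H858.VK.isJ4.1
  rcases (h.coatom.le_iff).1 h.norm with h1 | h1
  · exfalso
    have hn : S.Normal := Subgroup.normalizer_eq_top_iff.1 h1
    rcases hsim.eq_bot_or_eq_top_of_normal S hn with h2 | h2
    · have := h.simple
      rw [h2] at this
      exact not_nontrivial _ this.toNontrivial
    · exact h.coatom.1 (top_le_iff.1 (h2 ▸ h.le))
  · exact h1.symm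

theorem exists_hom {T : Type} [Group T] {S : Subgroup 𝒢} (e : S ≃* T) :
    ∃ φ : T →* 𝒢, Function.Injective φ ∧ φ.range = S := by
  refine ⟨S.subtype.comp e.symm.toMonoidHom, S.subtype_injective.comp e.symm.injective, ?_⟩
  ext x
  constructor
  · rintro ⟨t, rfl⟩
    exact (e.symm t).2
  · intro hx
    exact ⟨e ⟨x, hx⟩, by simp⟩

/-- **the maximal subgroups of `J₄` with socle `U₃(11)` are conjugate** -/
theorem one_U311 {F : Type} [Field F] [Fintype F] (hF : Fintype.card F = 121) : OneCl (Cfsg.PSU 3 F 11) := by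
  intro M S M' S' n1 n2 ⟨e⟩ ⟨e'⟩
  obtain ⟨U, h, w, g, hgen⟩ := exists_gens hF
  obtain ⟨φ, hφ, hS⟩ := exists_hom e
  obtain ⟨φ', hφ', hS'⟩ := exists_hom e'
  have hcl : ∀ ψ : Cfsg.PSU 3 F 11 →* 𝒢, closure (((U.map ψ : Subgroup 𝒢) : Set 𝒢) ∪ {ψ h, ψ w}) = ψ.range := by
    intro ψ
    rw [MonoidHom.range_eq_map, ← hgen, MonoidHom.map_closure, Set.image_union, Set.image_pair]
    rfl
  obtain ⟨k, hk⟩ := glue not_dvd11 H1 H2 (Gens.map g hφ) (Gens.map g hφ')
  rw [hcl, hcl, hS, hS'] at hk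
  refine ⟨k, ?_⟩
  rw [eq_norm n1, eq_norm n2, hk]
  exact Cfsg.Agent.H859.Transfer.map_normalizer (MulAut.conj k) S

end Cfsg.Agent.H785.JM.U311
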